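import Cfsg.Agent.H827.Coco
import Cfsg.Agent.H854.Ore.Ext

/-!
# `Fi24'`: centralizers in `2^11 : M24` of elements of order 3 (helper49, for S2491 and S2492, R2 of helper265)

* `lift_cent` : the centralizer in `N = 2^11 : M24` of an element `s` of order 3 covers the centralizer of its image in `M24`;
* `into_gen` : if `C_N(s)` contains a Sylow 2-subgroup of the centralizer of `s` in `Fi24'`, the products `s t`, `t` a
  2-element commuting with `s`, are conjugate into `N`.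
-/

set_option autoImplicit false
set_option maxRecDepth 100000

namespace Cfsg.Agent.H49.TF

open Cfsg Subgroup Cfsg.Agent.H827.Coco
open Cfsg.Agent.H827.CocoD (d e)
open Cfsg.Agent.R08.FiTwentyFour (L finite_Fi24 mem_commutator_iff)
open Cfsg.Spor (Fi24)

/-- `2^11 : M24` -/
abbrev NN : Subgroup Spor.Fi24' := normalizer (AA : Set Spor.Fi24')

theorem finK : Finite Spor.Fi24' := Cfsg.Agent.H827.CocoD.finite

/-! ### Generalities -/

/-- a `p`-subgroup of `K` is conjugate in `K` to a subgroup of a subgroup of index prime to `p` -/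
theorem conj_in {G : Type*} [Group G] {K H : Subgroup G} {p : ℕ} [Fact p.Prime] (hk : ¬ p ∣ H.relIndex K)
    {Q : Subgroup G} (hQ : IsPGroup p Q) (hQK : Q ≤ K) : ∃ k ∈ K, ∀ q ∈ Q, k⁻¹ * q * k ∈ H := by
  let φ : Q →* K := inclusion hQK
  let act : MulAction Q (K ⧸ H.subgroupOf K) := MulAction.compHom _ φ
  obtain ⟨x, hx⟩ := hQ.nonempty_fixed_point_of_prime_not_dvd_card (K ⧸ H.subgroupOf K) hk
  obtain ⟨k, rfl⟩ := QuotientGroup.mk_surjective x
  refine ⟨k, k.2, fun q hq => ?_⟩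
  have h1 : (φ ⟨q, hq⟩ • (QuotientGroup.mk k : K ⧸ H.subgroupOf K)) = QuotientGroup.mk k := hx ⟨q, hq⟩
  rw [MulAction.Quotient.smul_mk, eq_comm, QuotientGroup.eq, mem_subgroupOf] at h1
  have h2 : (k : G)⁻¹ * (q * k) ∈ H := h1
  rwa [← mul_assoc] at h2

/-- a further step of a 2-subgroup -/
theorem two_mul_dvd {G : Type*} [Group G] [Finite G] {C H : Subgroup G} (hHC : H ≤ C) {x : G} (hx : x ∈ C)
    (hn : x ∈ normalizer (H : Set G)) (hx2 : x ^ 2 ∈ H) (hxn : x ∉ H) : Nat.card H * 2 ∣ Nat.card C := by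
  let M : Subgroup G := C ⊓ normalizer (H : Set G)
  have hHM : H ≤ M := le_inf hHC le_normalizer
  have hnor : (H.subgroupOf M).Normal := by
    refine ⟨fun h hh g => ?_⟩
    rw [mem_subgroupOf] at hh ⊢
    exact (mem_normalizer_iff.1 g.2.2 h).1 hh
  let y : M := ⟨x, hx, hn⟩
  have hy1 : (QuotientGroup.mk y : M ⧸ H.subgroupOf M) ≠ 1 := by
    intro h
    rw [QuotientGroup.eq_one_iff, mem_subgroupOf] at h
    exact hxn h
  have hy2 : (QuotientGroup.mk y : M ⧸ H.subgroupOf M) ^ 2 = 1 := by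
    rw [← QuotientGroup.mk_pow, QuotientGroup.eq_one_iff, mem_subgroupOf]
    exact hx2
  have h2 : Fact (Nat.Prime 2) := ⟨Nat.prime_two⟩
  have h3 : 2 ∣ Nat.card (M ⧸ H.subgroupOf M) := by
    rw [← orderOf_eq_prime hy2 hy1]
    exact orderOf_dvd_natCard _
  have h4 := Subgroup.card_mul_index (H.subgroupOf M)
  rw [Nat.card_congr (subgroupOfEquivOfLe hHM).toEquiv] at h4
  have h5 : Nat.card M ∣ Nat.card C := card_dvd_of_le inf_le_left
  exact (Nat.mul_dvd_mul_left _ h3).trans ((dvd_of_eq h4).trans h5)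

/-- a dihedral group of order 8 in a centralizer -/
theorem eight_dvd {G : Type*} [Group G] [Finite G] {C : Subgroup G} {a b : G} (ha : a ∈ C) (hb : b ∈ C)
    (ha4 : a ^ 4 = 1) (ha2 : a ^ 2 ≠ 1) (hb2 : b ^ 2 = 1) (hab : b * a * b = a⁻¹) : 2 ^ 3 ∣ Nat.card C := by
  have ho : orderOf a = 4 := by
    have h2 : Fact (Nat.Prime 2) := ⟨Nat.prime_two⟩
    exact orderOf_eq_prime_pow (p := 2) (n := 1) (by rwa [pow_one]) (by norm_num; exact ha4)
  have hbi : b⁻¹ = b := inv_eq_of_mul_eq_one_left (by rw [← pow_two]; exact hb2)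
  have hc := two_mul_dvd (H := zpowers a) (C := C) (zpowers_le.2 ha) hb ?_ ?_ ?_
  · rw [Nat.card_zpowers, ho] at hc
    exact hc
  · rw [mem_normalizer_iff]
    have key : ∀ x ∈ zpowers a, b * x * b⁻¹ ∈ zpowers a := by
      rintro x ⟨n, rfl⟩
      show b * a ^ n * b⁻¹ ∈ zpowers a
      rw [← conj_zpow, hbi, hab, inv_zpow]
      exact inv_mem (zpow_mem (mem_zpowers a) n)
    intro x
    refine ⟨key x, fun h => ?_⟩
    have h1 := key _ h
    rw [hbi] at h1
    have h3 : b * (b * x * b) * b = x := by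
      calc b * (b * x * b) * b = (b * b) * x * (b * b) := by group
        _ = x := by rw [← pow_two, hb2]; group
    rwa [h3] at h1
  · rw [hb2]; exact one_mem _
  · intro h
    obtain ⟨n, hn⟩ := h
    have hn' : a ^ n = b := hn
    have h1 : b * a = a * b := by rw [← hn']; exact ((Commute.refl a).zpow_left n).eq
    rw [h1, mul_assoc, ← pow_two, hb2, mul_one] at hab
    apply ha2
    rw [pow_two]
    nth_rewrite 2 [hab]
    exact mul_inv_cancel a

/-! ### The extension -/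

theorem mem_AA {x : NN} (h : ind x = 1) : (x : Spor.Fi24') ∈ AA := (ind_ker x).1 h

theorem comm_AA {x y : NN} (hx : ind x = 1) (hy : ind y = 1) : x * y = y * x :=
  Subtype.ext (Cfsg.Agent.H827.CocoD.pre.comm' (mem_AA hx) (mem_AA hy))

theorem sq_AA {x : NN} (hx : ind x = 1) : x * x = 1 :=
  Subtype.ext (Cfsg.Agent.H827.CocoD.pre.sq_A (mem_AA hx))

/-- **the centralizer covers** -/
theorem lift_cent {s : NN} (hs : s ^ 3 = 1) {c : M24} (hc : c * ind s = ind s * c) :
    ∃ n : NN, n * s = s * n ∧ ind n = c := by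
  obtain ⟨n0, rfl⟩ := ind_surj c
  set u := n0 * s * n0⁻¹ with hu
  have hiu : ind u = ind s := by
    rw [hu, map_mul, map_mul, map_inv, hc, mul_inv_cancel_right]
  set v := u * s⁻¹ with hv
  have hiv : ind v = 1 := by rw [hv, map_mul, map_inv, hiu, mul_inv_cancel]
  have huv : u = v * s := by rw [hv]; group
  have conj1 : ∀ x y : NN, ind x = 1 → ind (y * x * y⁻¹) = 1 := by
    intro x y hx
    rw [map_mul, map_mul, hx, mul_one, map_inv, mul_inv_cancel]
  set a := s * v * s⁻¹ with ha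
  have hia : ind a = 1 := conj1 v s hiv
  set b := s * a * s⁻¹ with hb
  have hib : ind b = 1 := conj1 a s hia
  have hu3 : u ^ 3 = 1 := by rw [hu, conj_pow, hs]; group
  have hvab : v * a * b = 1 := by
    have h1 : (v * s) ^ 3 = 1 := by rw [← huv, hu3]
    have h2 : (v * s) ^ 3 = v * a * b * s ^ 3 := by
      rw [hb, ha]
      simp only [pow_succ, pow_zero, one_mul]
      group
    rw [h2, hs, mul_one] at h1
    exact h1
  have hva : v * a = b := by
    have h1 : v * a = b⁻¹ := mul_eq_one_iff_eq_inv.1 hvab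
    rw [h1]
    exact inv_eq_of_mul_eq_one_left (sq_AA hib)
  refine ⟨a * n0, ?_, ?_⟩
  · have h1 : a * u * a⁻¹ = s := by
      have h2 : a * v * b⁻¹ = 1 := by rw [comm_AA hia hiv, hva, mul_inv_cancel]
      calc a * u * a⁻¹ = a * v * (s * a⁻¹ * s⁻¹) * s := by rw [huv]; group
        _ = a * v * b⁻¹ * s := by rw [hb]; group
        _ = s := by rw [h2, one_mul]
    calc a * n0 * s = (a * u * a⁻¹) * (a * n0) := by rw [hu]; group
      _ = s * (a * n0) := by rw [h1]
  · rw [map_mul, hia, one_mul]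

instance : Finite NN := by
  have := finK
  infer_instance

/-- the order of the centralizer -/
theorem card_cent {s : NN} (hs : s ^ 3 = 1) : Nat.card (centralizer ({s} : Set NN)) =
    Nat.card (ind.ker ⊓ centralizer ({s} : Set NN) : Subgroup NN) * Nat.card (centralizer ({ind s} : Set M24)) := by
  let f : centralizer ({s} : Set NN) →* M24 := ind.comp (Subgroup.subtype _)
  have h1 := Subgroup.card_mul_index f.ker
  rw [Subgroup.index_ker] at h1
  have h2 : f.range = centralizer ({ind s} : Set M24) := by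
    ext c
    rw [mem_centralizer_singleton_iff]
    constructor
    · rintro ⟨x, rfl⟩
      show ind x * ind s = ind s * ind x
      rw [← map_mul, ← map_mul, mem_centralizer_singleton_iff.1 x.2]
    · intro hc
      obtain ⟨n, h3, h4⟩ := lift_cent hs hc
      exact ⟨⟨n, mem_centralizer_singleton_iff.2 h3⟩, h4⟩
  have h3 : Nat.card f.ker = Nat.card (ind.ker ⊓ centralizer ({s} : Set NN) : Subgroup NN) := by
    have h4 : f.ker = (ind.ker ⊓ centralizer ({s} : Set NN)).subgroupOf (centralizer ({s} : Set NN)) := by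
      ext x
      rw [MonoidHom.mem_ker, mem_subgroupOf, mem_inf, MonoidHom.mem_ker]
      exact ⟨fun h => ⟨h, x.2⟩, fun h => h.1⟩
    rw [h4, Nat.card_congr (subgroupOfEquivOfLe inf_le_right).toEquiv]
  rw [← h1, h2, h3]

theorem card_ker : Nat.card ind.ker = 2 ^ 11 := by
  rw [ker_eq, Nat.card_congr (subgroupOfEquivOfLe le_normalizer).toEquiv, cardA]

/-- the fixed points in `2^11` -/
theorem card_fix {s : NN} (hs : orderOf s = 3) : ∃ j, j ≤ 11 ∧ j % 2 = 1 ∧
    Nat.card (ind.ker ⊓ centralizer ({s} : Set NN) : Subgroup NN) = 2 ^ j := by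
  have h3 : Fact (Nat.Prime 3) := ⟨Nat.prime_three⟩
  have h1 : Nat.card (ind.ker ⊓ centralizer ({s} : Set NN) : Subgroup NN) ∣ 2 ^ 11 := by
    rw [← card_ker]
    exact card_dvd_of_le inf_le_left
  obtain ⟨j, hj, h2⟩ := (Nat.dvd_prime_pow Nat.prime_two).1 h1
  refine ⟨j, hj, ?_, h2⟩
  have h4 := Cfsg.Agent.H854.Ore.fix_modEq (p := 3) hs (E := ind.ker) (by
    rw [normalizer_eq_top]; trivial)
  rw [h2, card_ker] at h4
  interval_cases j <;> revert h4 <;> decide

/-- **the 2-part of `C_N(s)`** -/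
theorem dvd_cent {s : NN} (hs : orderOf s = 3) {k : ℕ}
    (hf : 2 ^ (2 * k - 1) < Nat.card (ind.ker ⊓ centralizer ({s} : Set NN) : Subgroup NN))
    (hm : 2 ^ 3 ∣ Nat.card (centralizer ({ind s} : Set M24))) :
    2 ^ (2 * k + 1 + 3) ∣ Nat.card (centralizer ({s} : Set NN)) := by
  obtain ⟨j, -, hj, h1⟩ := card_fix hs
  rw [h1] at hf
  have h2 : 2 * k - 1 < j := (Nat.pow_lt_pow_iff_right (by norm_num)).1 hf
  have h3 : 2 * k + 1 ≤ j := by omega
  rw [card_cent (by rw [← hs]; exact pow_orderOf_eq_one s), h1, pow_add]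
  exact Nat.mul_dvd_mul (pow_dvd_pow 2 h3) hm

/-! ### Sylow -/

theorem into_aux {s : NN} {k : ℕ} (hd : 2 ^ k ∣ Nat.card (centralizer ({s} : Set NN)))
    (hn : ¬ 2 ^ (k + 1) ∣ Nat.card (centralizer ({(s : Spor.Fi24')} : Set Spor.Fi24'))) {t : Spor.Fi24'} {n : ℕ}
    (ht : t ^ 2 ^ n = 1) (hst : Commute (s : Spor.Fi24') t) : ∃ c : Spor.Fi24', Commute c s ∧ c⁻¹ * t * c ∈ NN := by
  have := finK
  have h2 : Fact (Nat.Prime 2) := ⟨Nat.prime_two⟩
  set C : Subgroup Spor.Fi24' := centralizer ({(s : Spor.Fi24')} : Set Spor.Fi24') with hC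
  set H : Subgroup Spor.Fi24' := (centralizer ({s} : Set NN)).map (Subgroup.subtype NN) with hH
  have hHC : H ≤ C := by
    rintro _ ⟨x, hx, rfl⟩
    rw [hC, mem_centralizer_singleton_iff]
    exact congrArg Subtype.val (mem_centralizer_singleton_iff.1 hx)
  have hcH : Nat.card H = Nat.card (centralizer ({s} : Set NN)) :=
    Nat.card_congr ((centralizer ({s} : Set NN)).equivMapOfInjective _ (Subgroup.subtype_injective _)).symm.toEquiv
  have hcard : Nat.card H * H.relIndex C = Nat.card C := by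
    rw [← Subgroup.card_mul_index (H.subgroupOf C), Nat.card_congr (subgroupOfEquivOfLe hHC).toEquiv]
    rfl
  have hidx : ¬ 2 ∣ H.relIndex C := by
    intro h
    apply hn
    rw [← hcard, hcH, pow_succ]
    exact Nat.mul_dvd_mul hd h
  have hp : IsPGroup 2 (zpowers t) := by
    refine IsPGroup.iff_card.2 ?_
    rw [Nat.card_zpowers]
    obtain ⟨j, -, hj⟩ := (Nat.dvd_prime_pow Nat.prime_two).1 (orderOf_dvd_of_pow_eq_one ht)
    exact ⟨j, hj⟩
  obtain ⟨c, hc, h⟩ := conj_in hidx hp (by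
    rw [zpowers_le, hC, mem_centralizer_singleton_iff]
    exact hst.symm.eq)
  refine ⟨c, mem_centralizer_singleton_iff.1 hc, ?_⟩
  obtain ⟨x, -, hx⟩ := h t (mem_zpowers t)
  rw [← hx]
  exact x.2

/-- `N` is normalized by the transpositions of the frame -/
theorem conj_d_mem {y y' : Spor.Fi24'} (hy : y ∈ NN) (h : (y' : Fi24) = d none * (y : Fi24) * (d none)⁻¹) : y' ∈ NN := by
  obtain ⟨m, -, hm⟩ := exists_perm hy
  refine mem_normalizer_of (m := m) fun p => ?_
  have hc : ∀ q, d none * d q * (d none)⁻¹ = d q := by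
    intro q
    rw [(d_comm none q).eq]; group
  have hc' : ∀ q, (d none)⁻¹ * d q * d none = d q := by
    intro q
    calc (d none)⁻¹ * d q * d none = (d none)⁻¹ * (d none * d q * (d none)⁻¹) * d none := by rw [hc]
      _ = d q := by group
  rw [h]
  calc d none * (y : Fi24) * (d none)⁻¹ * d p * (d none * (y : Fi24) * (d none)⁻¹)⁻¹ =
      d none * ((y : Fi24) * ((d none)⁻¹ * d p * d none) * (y : Fi24)⁻¹) * (d none)⁻¹ := by group
    _ = d (m p) := by rw [hc', hm, hc]

/-- **the products are conjugate into `N`** -/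
theorem into_gen {s0 : NN} {k : ℕ} (hd : 2 ^ k ∣ Nat.card (centralizer ({s0} : Set NN)))
    (hn : ¬ 2 ^ (k + 1) ∣ Nat.card (centralizer ({(s0 : Spor.Fi24')} : Set Spor.Fi24'))) {s t : Spor.Fi24'} {n : ℕ}
    (hs : ∃ g : Fi24, g * (s : Fi24) * g⁻¹ = ((s0 : Spor.Fi24') : Fi24) ∨
      g * (s : Fi24) * g⁻¹ = ((s0 : Spor.Fi24') : Fi24)⁻¹)
    (ht : t ^ 2 ^ n = 1) (hst : Commute s t) : ∃ g : Spor.Fi24', g * (s * t) * g⁻¹ ∈ NN := by
  obtain ⟨g, hg⟩ := hs
  -- the conjugates
  have hnor : (_root_.commutator Fi24).Normal := inferInstance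
  set s' : Spor.Fi24' := ⟨g * s * g⁻¹, hnor.conj_mem _ s.2 g⟩ with hs'
  set t' : Spor.Fi24' := ⟨g * t * g⁻¹, hnor.conj_mem _ t.2 g⟩ with ht'
  have hcs : Commute (s0 : Spor.Fi24') t' := by
    have h1 : Commute s' t' := by
      apply Subtype.ext
      show g * (s : Fi24) * g⁻¹ * (g * (t : Fi24) * g⁻¹) = g * (t : Fi24) * g⁻¹ * (g * (s : Fi24) * g⁻¹)
      have h2 : (s : Fi24) * (t : Fi24) = (t : Fi24) * (s : Fi24) := congrArg Subtype.val hst.eq
      calc g * (s : Fi24) * g⁻¹ * (g * (t : Fi24) * g⁻¹) = g * ((s : Fi24) * (t : Fi24)) * g⁻¹ := by group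
        _ = g * ((t : Fi24) * (s : Fi24)) * g⁻¹ := by rw [h2]
        _ = _ := by group
    rcases hg with hg | hg
    · have h2 : s' = s0 := Subtype.ext hg
      rwa [h2] at h1
    · have h2 : s' = (s0 : Spor.Fi24')⁻¹ := Subtype.ext hg
      rw [h2] at h1
      have h3 := h1.inv_left
      rwa [inv_inv] at h3
  have ht1 : t' ^ 2 ^ n = 1 := by
    apply Subtype.ext
    have h1 : (t : Fi24) ^ 2 ^ n = 1 := congrArg Subtype.val ht
    show (g * (t : Fi24) * g⁻¹) ^ 2 ^ n = 1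
    rw [conj_pow, h1]; group
  obtain ⟨c, hc, hct⟩ := into_aux hd hn ht1 hcs
  have hcs' : c⁻¹ * s' * c ∈ NN := by
    rcases hg with hg | hg
    · have h2 : s' = s0 := Subtype.ext hg
      rw [h2, mul_assoc, ← hc.eq, ← mul_assoc, inv_mul_cancel, one_mul]
      exact s0.2
    · have h2 : s' = (s0 : Spor.Fi24')⁻¹ := Subtype.ext hg
      rw [h2, mul_assoc, ← hc.inv_right.eq, ← mul_assoc, inv_mul_cancel, one_mul]
      exact inv_mem s0.2
  have hm : c⁻¹ * (s' * t') * c ∈ NN := by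
    have h1 := mul_mem hcs' hct
    rwa [show c⁻¹ * s' * c * (c⁻¹ * t' * c) = c⁻¹ * (s' * t') * c by group] at h1
  have hval : ((c⁻¹ * (s' * t') * c : Spor.Fi24') : Fi24) =
      ((c : Fi24)⁻¹ * g) * ((s : Fi24) * (t : Fi24)) * ((c : Fi24)⁻¹ * g)⁻¹ := by
    show (c : Fi24)⁻¹ * (g * (s : Fi24) * g⁻¹ * (g * (t : Fi24) * g⁻¹)) * (c : Fi24) = _
    group
  by_cases hx : (c : Fi24)⁻¹ * g ∈ _root_.commutator Fi24
  · refine ⟨⟨(c : Fi24)⁻¹ * g, hx⟩, ?_⟩
    have h1 : (⟨(c : Fi24)⁻¹ * g, hx⟩ * (s * t) * (⟨(c : Fi24)⁻¹ * g, hx⟩)⁻¹ : Spor.Fi24') = c⁻¹ * (s' * t') * c :=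
      Subtype.ext hval.symm
    rw [h1]
    exact hm
  · have hx' : d none * ((c : Fi24)⁻¹ * g) ∈ _root_.commutator Fi24 := by
      rw [mem_commutator_iff] at hx ⊢
      rw [map_mul, Cfsg.Agent.H827.CocoD.sgn_d]
      have h1 := (Int.units_eq_one_or (Cfsg.Agent.Fischer.Fi24Final.sgn ((c : Fi24)⁻¹ * g))).resolve_left hx
      rw [h1]
      decide
    refine ⟨⟨d none * ((c : Fi24)⁻¹ * g), hx'⟩, conj_d_mem hm ?_⟩
    rw [hval]
    show d none * ((c : Fi24)⁻¹ * g) * ((s : Fi24) * (t : Fi24)) * (d none * ((c : Fi24)⁻¹ * g))⁻¹ = _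
    group

end Cfsg.Agent.H49.TF
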